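import Mathlib
import Cfsg.Agent.Lib.Helper68.Half.Defs

/-!
# HALF (S3371) package [MERS]: `q^d = Q²`, `Q + 1 = 2^j`, `Q ≥ 2` force `Q = q`.
-/

set_option autoImplicit false

namespace Cfsg.Agent.Lib.Helper34.Half

open Cfsg.Agent.Lib.Helper68.Half

theorem odd_pow_add_one (q : ℕ) (hq : Odd q) (n : ℕ) :
    ∃ S : ℕ, Odd S ∧ q ^ (2 * n + 1) + 1 = (q + 1) * S := by
  induction n with
  | zero => exact ⟨1, odd_one, by simp⟩
  | succ n ih =>
    obtain ⟨S, hS, h⟩ := ih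
    have hS1 : 1 ≤ S := hS.pos
    have hq1 : 1 ≤ q := hq.pos
    have hle : q - 1 ≤ q * q * S := by
      have : q ≤ q * q * S := by nlinarith
      omega
    refine ⟨q * q * S - (q - 1), ?_, ?_⟩
    · have hT : (q * q * S) % 2 = 1 := Nat.odd_iff.mp ((hq.mul hq).mul hS)
      have hq2 : q % 2 = 1 := Nat.odd_iff.mp hq
      rw [Nat.odd_iff]; omega
    · zify [hle, hq1] at h ⊢
      linear_combination (q : ℤ) ^ 2 * h

/-- **[MERS]** -/
theorem pkgMers : PkgMers := by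
  intro q d Q j hq hQ hj hQ2
  have hdvd : Q ∣ q ^ d := ⟨Q, hQ⟩
  obtain ⟨e, -, rfl⟩ := (Nat.dvd_prime_pow hq).mp hdvd
  have hj2 : 2 ≤ j := by
    by_contra hlt
    have : j = 0 ∨ j = 1 := by omega
    rcases this with rfl | rfl
    · rw [pow_zero] at hj; omega
    · rw [pow_one] at hj; omega
  obtain ⟨j', rfl⟩ : ∃ j', j = j' + 2 := ⟨j - 2, by omega⟩
  have h4 : (q ^ e + 1) % 4 = 0 := by
    rw [hj, pow_add]; norm_num
  have hqodd : Odd q := by
    rcases hq.eq_two_or_odd' with rfl | h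
    · exfalso
      have he : e ≠ 0 := by rintro rfl; simp at hQ2
      have h2 : (2 ^ e) % 2 = 0 := by
        obtain ⟨e', rfl⟩ := Nat.exists_eq_succ_of_ne_zero he
        rw [pow_succ]; omega
      omega
    · exact h
  rcases Nat.even_or_odd' e with ⟨n, rfl | rfl⟩
  · exfalso
    have ht : Odd (q ^ n) := hqodd.pow
    have h1 : (q ^ (2 * n)) % 4 = 1 := by
      rw [mul_comm, pow_mul, pow_two]
      have h2 := Nat.odd_iff.mp ht
      have h3 : q ^ n % 4 = 1 ∨ q ^ n % 4 = 3 := by omega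
      rcases h3 with h | h <;> simp [Nat.mul_mod, h]
    omega
  · obtain ⟨S, hS, hSeq⟩ := odd_pow_add_one q hqodd n
    have hSdvd : S ∣ 2 ^ (j' + 2) := ⟨q + 1, by rw [← hj, hSeq, mul_comm]⟩
    obtain ⟨k, -, rfl⟩ := (Nat.dvd_prime_pow Nat.prime_two).mp hSdvd
    have hk : k = 0 := by
      by_contra hk
      exact (Nat.not_even_iff_odd.mpr hS) (Nat.even_pow.mpr ⟨even_two, hk⟩)
    subst hk
    rw [pow_zero, mul_one] at hSeq
    omega

end Cfsg.Agent.Lib.Helper34.Half
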