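import Mathlib
import Cfsg.Agent.Lib.Helper68.Half.Defs

/-!
# HALF (S3371) packages [STAB] and [IRR]
-/

set_option autoImplicit false

universe u v

namespace Cfsg.Agent.Lib.Helper34.Half

open Cfsg.Agent.Lib.Helper68.Half

theorem card_orbit_mul_card_St {q : ℕ} [Fact q.Prime] {V : Type u} [AddCommGroup V]
    [Module (ZMod q) V] [Finite V] {G : Type v} [Group G] [Finite G]
    (ρ : G →* (V ≃ₗ[ZMod q] V)) (v : V) :
    Nat.card {u : V | ∃ g : G, ρ g v = u} * Nat.card (St ρ v) = Nat.card G := by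
  letI : MulAction G V := MulAction.compHom V ρ
  have h1 : {u : V | ∃ g : G, ρ g v = u} = MulAction.orbit G v := rfl
  have h2 : St ρ v = MulAction.stabilizer G v := by ext g; rfl
  rw [h1, h2]
  rw [Nat.card_congr (MulAction.orbitEquivQuotientStabilizer G v), ← Subgroup.index_eq_card,
    mul_comm]
  exact Subgroup.card_mul_index _

/-- **[STAB]** -/
theorem pkgStab : PkgStab.{u, v} := by
  intro q _ V _ _ _ G _ _ ρ hH v w hv hw
  have h1 := card_orbit_mul_card_St ρ v
  have h2 := card_orbit_mul_card_St ρ w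
  rw [hH v w hv hw, ← h2] at h1
  have hpos : 0 < Nat.card {u : V | ∃ g : G, ρ g w = u} := by
    have : Nonempty {u : V | ∃ g : G, ρ g w = u} := ⟨⟨ρ 1 w, 1, rfl⟩⟩
    exact Nat.card_pos
  exact Nat.eq_of_mul_eq_mul_left hpos h1

/-- **[IRR]** from [MASCHKE] and [SPLIT]. -/
theorem pkgIrr_of (hM : PkgMaschke.{u, v}) (hS : PkgSplit.{u, v}) : PkgIrr.{u, v} := by
  intro q _ V _ _ _ G _ _ p _ ρ hp hpq hinj hEq hSemi W hW
  by_contra hcon
  push Not at hcon
  obtain ⟨hWbot, hWtop⟩ := hcon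
  obtain ⟨W', hW', hinf, hsup⟩ := hM p ρ hp hpq W hW
  have hW'bot : W' ≠ ⊥ := by
    rintro rfl
    rw [sup_bot_eq] at hsup
    exact hWtop hsup
  obtain ⟨w₀, hw₀, hw₀0⟩ := (Submodule.ne_bot_iff W).mp hWbot
  obtain ⟨w₀', hw₀', hw₀'0⟩ := (Submodule.ne_bot_iff W').mp hW'bot
  apply hSemi
  -- every element of `St w₀` is trivial
  have hSt : ∀ g ∈ St ρ w₀, g = 1 := by
    intro g hg
    have hgW' : ∀ w' ∈ W', ρ g w' = w' := by
      intro w' hw'
      by_cases h0 : w' = 0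
      · subst h0; simp
      · have := hS ρ hEq W W' hW hW' hinf w₀ hw₀ w' hw' hw₀0 h0
        rw [this] at hg
        exact hg
    have hgW : ∀ w ∈ W, ρ g w = w := by
      intro w hw
      by_cases h0 : w = 0
      · subst h0; simp
      · have h1 := hS ρ hEq W W' hW hW' hinf w hw w₀' hw₀' h0 hw₀'0
        have h2 : g ∈ St ρ w₀' := hgW' w₀' hw₀'
        rw [← h1] at h2
        exact h2
    apply hinj
    rw [map_one]
    apply LinearEquiv.ext
    intro x
    have hx : x ∈ W ⊔ W' := by rw [hsup]; trivial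
    obtain ⟨a, ha, b, hb, rfl⟩ := Submodule.mem_sup.mp hx
    rw [map_add, hgW a ha, hgW' b hb]
    rfl
  have hcard : Nat.card (St ρ w₀) = 1 := by
    have : St ρ w₀ = ⊥ := (Subgroup.eq_bot_iff_forall _).mpr hSt
    rw [this, Subgroup.card_bot]
  intro v hv g hg
  have h1 : Nat.card (St ρ v) = 1 := by rw [hEq v w₀ hv hw₀0, hcard]
  have h2 : St ρ v = ⊥ := Subgroup.eq_bot_of_card_eq _ h1
  have h3 : g ∈ St ρ v := hg
  rw [h2, Subgroup.mem_bot] at h3
  exact h3

end Cfsg.Agent.Lib.Helper34.Half
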